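import Mathlib
import Cfsg.Agent.Lib.Helper71.SUG2.Defs
import Cfsg.Agent.Lib.Helper13.UTransvComm

/-!
# Project SUG (S2412), block [II]: package [II-BPOW]

`T_w` (of order 2) and a diagonal element `d` (of order dividing 3) constant on the support of
`w` commute, hence both are powers of `T_w * d`.
-/

set_option autoImplicit false
set_option linter.unusedSectionVars false

namespace Cfsg.Agent.Lib.Helper89.SUG2

open Matrix Cfsg.Agent.Lib.Helper45 Cfsg.Agent.Lib.Helper13 Cfsg.Agent.Lib.Helper71.SUG2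

universe u

/-- [II-BPOW] (from [II-WISO]) -/
theorem pkgBPow_of (hW : PkgWIso.{u}) : PkgBPow.{u} := by
  intro F _ _ hF n hn t d δ a ht hd hδ hδa K htd
  have h2 := f4_two hF
  have hw0 : Cfsg.hermForm n F 2 (wvec n F) (wvec n F) = 0 := hW F hF n hn
  have htt : t * t = 1 := by
    apply smat_ext
    rw [smat_mul, ht, smat_one]
    show Cfsg.unitaryTransvection n 2 (wvec n F) 1 * Cfsg.unitaryTransvection n 2 (wvec n F) 1 = 1
    rw [utransv_mul _ _ _ hw0]
    have h11 : (1 : F) + 1 = 0 := by linear_combination h2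
    rw [h11, utransv_eq, zero_smul, add_zero]
  have hd3 : d * d * d = 1 := by
    apply smat_ext
    rw [smat_mul, smat_mul, hd, smat_one, Matrix.diagonal_mul_diagonal,
      Matrix.diagonal_mul_diagonal, ← Matrix.diagonal_one]
    congr 1
    funext i
    have h3 := f4_cube hF (δ i) (hδ i)
    show δ i * δ i * δ i = 1
    linear_combination h3
  have ha : a ≠ 0 := by
    rw [← hδa ⟨0, by omega⟩ (show (0 : ℕ) < 4 by norm_num)]
    exact hδ _
  have hGw : Matrix.diagonal δ *ᵥ wvec n F = a • wvec n F := by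
    funext i
    rw [Matrix.mulVec_diagonal, Pi.smul_apply, smul_eq_mul]
    unfold wvec
    by_cases h : i.val < 4
    · rw [if_pos h, hδa i h]
    · rw [if_neg h, mul_zero, mul_zero]
  have hcomm : t * d = d * t := by
    apply smat_ext
    rw [smat_mul, smat_mul, ht, hd]
    have hiso : IsHermIso n F 2 (Matrix.diagonal δ) := by
      rw [← hd]
      exact d.2
    have h1 := utransv_conj (q := 2) hiso (wvec n F) 1
    rw [hGw, utransv_smul, f4_cube hF a ha, one_mul] at h1
    exact h1.symm
  have hc : Commute t d := hcomm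
  have ht3 : t ^ 3 = t := by
    rw [pow_succ, pow_two, htt, one_mul]
  have hd3' : d ^ 3 = 1 := by
    rw [pow_succ, pow_two, hd3]
  have ht4 : t ^ 4 = 1 := by
    rw [pow_succ, ht3, htt]
  have hd4 : d ^ 4 = d := by
    rw [pow_succ, hd3', one_mul]
  have e3 : (t * d) ^ 3 = t := by
    rw [hc.mul_pow, ht3, hd3', mul_one]
  have e4 : (t * d) ^ 4 = d := by
    rw [hc.mul_pow, ht4, hd4, one_mul]
  exact ⟨e3 ▸ K.pow_mem htd 3, e4 ▸ K.pow_mem htd 4⟩

end Cfsg.Agent.Lib.Helper89.SUG2
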