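import Mathlib
import Cfsg.Agent.Lib.Helper71.SUG2.Defs
import Cfsg.Agent.Lib.Helper13.UTransvComm

/-!
# Project SUG (S2412), block [II]: package [II-CK]

`C(K)` is closed under zero, scalars and third points, and is `K`-stable.
-/

set_option autoImplicit false
set_option linter.unusedSectionVars false

namespace Cfsg.Agent.Lib.Helper89.SUG2

open Matrix Cfsg.Agent.Lib.Helper45 Cfsg.Agent.Lib.Helper13 Cfsg.Agent.Lib.Helper71.SUG2

universe u

section

variable {F : Type u} [Field F] [Fintype F] {n : ℕ}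

theorem ck_one_sq (hF : Fintype.card F = 2 ^ 2) : (1 : F) ^ 2 = -1 := by
  have h2 := f4_two hF
  rw [one_pow]
  linear_combination h2

/-- the transvection of an isotropic vector as an element of `SU`. -/
theorem ck_exists (hF : Fintype.card F = 2 ^ 2) (v : Fin n → F) (hv : H n F v v = 0) :
    ∃ g : ↥(Cfsg.SU n F 2), smat g = Tmat n F v :=
  ⟨suMk _ (det_utransv v 1 hv) (isHermIso_utransv hF v 1 hv (ck_one_sq hF)), rfl⟩

theorem ck_Tmat_zero : Tmat n F (0 : Fin n → F) = 1 := by
  rw [Matrix.ext_iff_mulVec]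
  intro x
  rw [Tmat_mulVec, smul_zero, add_zero, Matrix.one_mulVec]

theorem ck_stable (hF : Fintype.card F = 2 ^ 2) (K : Subgroup ↥(Cfsg.SU n F 2))
    (g : ↥(Cfsg.SU n F 2)) (hg : g ∈ K) (v : Fin n → F) (hv : v ∈ CK K) :
    smat g *ᵥ v ∈ CK K := by
  obtain ⟨hv0, hvK⟩ := hv
  refine ⟨by rw [H_smat]; exact hv0, ?_⟩
  intro g' hg'
  obtain ⟨t, ht⟩ := ck_exists hF v hv0
  have htK : t ∈ K := hvK t ht
  have e : g' = g * t * g⁻¹ := by
    apply smat_ext
    rw [hg', smat_mul, smat_mul, ht]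
    have h1 : smat g * Tmat n F v = Tmat n F (smat g *ᵥ v) * smat g :=
      utransv_conj (q := 2) g.2 v 1
    rw [h1, Matrix.mul_assoc, ← smat_mul, mul_inv_cancel, smat_one, Matrix.mul_one]
  rw [e]
  exact K.mul_mem (K.mul_mem hg htK) (K.inv_mem hg)

end

/-- [II-CK] -/
theorem pkgCK : Cfsg.Agent.Lib.Helper71.SUG2.PkgCK.{u} := by
  intro F _ _ hF n K
  refine ⟨⟨?_, ?_, ?_⟩, fun g hg v hv => ck_stable hF K g hg v hv⟩
  · refine ⟨?_, ?_⟩
    · rw [H_apply]
      simp
    · intro g hg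
      have e : g = 1 := by
        apply smat_ext
        rw [hg, ck_Tmat_zero, smat_one]
      rw [e]
      exact K.one_mem
  · intro v hv a ha
    obtain ⟨hv0, hvK⟩ := hv
    refine ⟨?_, ?_⟩
    · show Cfsg.hermForm n F 2 (a • v) (a • v) = 0
      rw [herm_smul_left, herm_smul_right]
      have : Cfsg.hermForm n F 2 v v = 0 := hv0
      rw [this, mul_zero, mul_zero]
    · intro g hg
      apply hvK g
      rw [hg]
      show Cfsg.unitaryTransvection n 2 (a • v) 1 = Cfsg.unitaryTransvection n 2 v 1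
      rw [utransv_smul, f4_cube hF a ha, one_mul]
  · intro e he f hf
    obtain ⟨t, ht⟩ := ck_exists hF f hf.1
    have htK : t ∈ K := hf.2 t ht
    have h1 := ck_stable hF K t htK e he
    rw [ht, Tmat_mulVec] at h1
    exact h1

end Cfsg.Agent.Lib.Helper89.SUG2
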